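import Mathlib
import Cfsg.Agent.Lib.Helper19.KAlt.Defs5

/-!
# LW5 (S0748), package [NOINV4]: under `EvenOn` no involution fixes four points
-/

set_option autoImplicit false

namespace Cfsg.Agent.Lib.Helper74.KAlt

open Cfsg.Agent.Lib.Helper75.LW Cfsg.Agent.Lib.Helper19.KAlt

universe u

/-- [NOINV4] from [INVSET] and [SGN] -/
theorem pkgNoInv4_of (hI : PkgInvSet.{u}) (hS : PkgSgn.{u}) : PkgNoInv4.{u} := by
  intro α _ _ G k hk hkn hEven s hs t htG ht2 hfix
  by_contra ht1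
  obtain ⟨Δ, hΔ, hinv, hmod⟩ := hI t k ht2 ht1 hk hkn ⟨s, hs, hfix⟩
  obtain ⟨τ, hτ⟩ : ∃ τ : Equiv.Perm ↥Δ, τ = t.subtypePerm hinv := ⟨_, rfl⟩
  have hτa : ∀ x : ↥Δ, t (x : α) = τ x := by
    intro x
    rw [hτ]
    rfl
  have hτ2 : τ * τ = 1 := by
    ext x
    rw [Equiv.Perm.mul_apply, ← hτa, ← hτa]
    have h1 : (t * t) (x : α) = x := by rw [ht2]; rfl
    exact h1
  have hcard : (Finset.univ.filter (fun b : ↥Δ => τ b ≠ b)).card =
      (Δ.filter (fun a => t a ≠ a)).card := by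
    rw [← Finset.card_map (Function.Embedding.subtype _)]
    congr 1
    ext a
    simp only [Finset.mem_map, Finset.mem_filter, Finset.mem_univ, true_and,
      Function.Embedding.coe_subtype]
    constructor
    · rintro ⟨b, hb, rfl⟩
      refine ⟨b.2, fun h => hb (Subtype.ext ?_)⟩
      rw [← hτa]; exact h
    · rintro ⟨ha, hne⟩
      refine ⟨⟨a, ha⟩, fun h => hne ?_, rfl⟩
      have h1 := congrArg Subtype.val h
      rw [← hτa] at h1
      exact h1
  have hsgn := hS τ hτ2 (by rw [hcard]; exact hmod)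
  have hev := hEven Δ hΔ t htG τ hτa
  rw [hsgn] at hev
  exact absurd hev (by decide)

end Cfsg.Agent.Lib.Helper74.KAlt
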