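import Mathlib
import Cfsg.Agent.Lib.Helper19.KAlt.Defs5

/-!
# LW5 (S0748), package [ODDK]: the four-point stabilisers have odd order
-/

set_option autoImplicit false

namespace Cfsg.Agent.Lib.Helper74.KAlt

open Cfsg.Agent.Lib.Helper75.LW Cfsg.Agent.Lib.Helper19.KAlt

universe u

/-- [ODDK] -/
theorem pkgOddK : PkgOddK.{u} := by
  intro α _ _ G hNo x
  by_contra hodd
  rw [Nat.not_odd_iff_even, even_iff_two_dvd] at hodd
  haveI : Fact (Nat.Prime 2) := ⟨Nat.prime_two⟩
  obtain ⟨g, hg⟩ := exists_prime_orderOf_dvd_card' 2 hodd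
  have hg2 : g ^ 2 = 1 := by rw [← hg]; exact pow_orderOf_eq_one g
  have hg1 : g ≠ 1 := by
    intro h
    rw [h, orderOf_one] at hg
    norm_num at hg
  obtain ⟨t, ht⟩ : ∃ t : Equiv.Perm α, t = ((g : ↥G) : Equiv.Perm α) := ⟨_, rfl⟩
  have htG : t ∈ G := by rw [ht]; exact (g : ↥G).2
  have ht2 : t * t = 1 := by
    have h1 := congrArg (fun y : ↥(MulAction.stabilizer ↥G x) => ((y : ↥G) : Equiv.Perm α)) hg2
    simp only [pow_two] at h1
    rw [ht]
    exact h1
  have hfix : ∀ a ∈ Finset.univ.map x, t a = a := by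
    intro a ha
    rw [Finset.mem_map] at ha
    obtain ⟨i, -, rfl⟩ := ha
    have h1 : (g : ↥G) • x = x := MulAction.mem_stabilizer_iff.mp g.2
    have h2 := DFunLike.congr_fun h1 i
    rw [ht]
    exact h2
  have h1 : t = 1 := hNo (Finset.univ.map x) (by simp) t htG ht2 hfix
  apply hg1
  apply Subtype.ext
  apply Subtype.ext
  rw [← ht, h1]
  rfl

end Cfsg.Agent.Lib.Helper74.KAlt
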