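import Mathlib
import Cfsg.Agent.Lib.Helper19.KAlt.Defs5

/-!
# LW5 (S0748), package [SGN]: an involution moving `2 mod 4` points is odd
-/

set_option autoImplicit false

namespace Cfsg.Agent.Lib.Helper74.KAlt

open Cfsg.Agent.Lib.Helper75.LW Cfsg.Agent.Lib.Helper19.KAlt

universe u

/-- [SGN] -/
theorem pkgSgn : PkgSgn.{u} := by
  intro β _ _ τ hτ2 hcard
  have hsupp : τ.support.card = (Finset.univ.filter (fun b => τ b ≠ b)).card := by
    congr 1
  have hτ1 : τ ≠ 1 := by
    intro h
    rw [h] at hcard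
    simp at hcard
  haveI : Fact (Nat.Prime 2) := ⟨Nat.prime_two⟩
  have hord : orderOf τ = 2 := orderOf_eq_prime (by rw [pow_two]; exact hτ2) hτ1
  obtain ⟨n, hn⟩ := Equiv.Perm.cycleType_prime_order (σ := τ) (by rw [hord]; exact Nat.prime_two)
  rw [hord] at hn
  have hsum : τ.cycleType.sum = 2 * (n + 1) := by
    rw [hn, Multiset.sum_replicate, smul_eq_mul, mul_comm]
  have hc : Multiset.card τ.cycleType = n + 1 := by rw [hn, Multiset.card_replicate]
  have h1 := Equiv.Perm.sum_cycleType τ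
  rw [hsum, hsupp] at h1
  rw [Equiv.Perm.sign_of_cycleType, hsum, hc]
  have hodd : Odd (2 * (n + 1) + (n + 1)) := by
    rw [Nat.odd_iff]; omega
  exact hodd.neg_one_pow

end Cfsg.Agent.Lib.Helper74.KAlt
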